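import Cfsg.Agent.Lib.Fischer.M22Sylow.FiveTwentyThree
import Cfsg.Agent.Lib.Fischer.M22Sylow.SymNine
import Cfsg.Agent.Lib.Fischer.M24Sylow.Eleven

/-!
Subgroups of order 5 in groups of type M(24): one class, and their normalizers.
-/

set_option autoImplicit false
set_option linter.unusedSectionVars false

namespace CfsgLib.Fischer.MTwentyFourSylow

open CfsgLib.Fischer CfsgLib.InvChar.FischerProducts CfsgLib.InvChar.FischerHexad
open CfsgLib.Fischer.M22Sylow CfsgLib.Fischer.TypeTwentyTwo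

/-- Two elements of odd order with the same image are equal. -/
theorem eq_of_image {G : Type*} [Group G] {D : Set G} (hD : Cfsg.IsThreeTranspositionGroup D) {d : G} (hd : d ∈ D)
    {Q : Type*} [Group Q] (π : Subgroup.centralizer ({d} : Set G) →* Q)
    (hker : ∀ z, π z = 1 ↔ (z : G) = 1 ∨ (z : G) = d) {p : ℕ} (hp : p % 2 = 1)
    {a b : Subgroup.centralizer ({d} : Set G)} (hab : π a = π b) (ha : (a : G) ^ p = 1) (hb : (b : G) ^ p = 1) :
    (a : G) = b := by
  have h2 : π (b⁻¹ * a) = 1 := by rw [map_mul, map_inv, hab, inv_mul_cancel]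
  rcases (hker _).1 h2 with h | h <;> simp only [Subgroup.coe_mul, InvMemClass.coe_inv] at h
  · exact (inv_mul_eq_one.1 h).symm
  · exfalso
    have hbd : Commute (b : G) d := Subgroup.mem_centralizer_singleton_iff.1 b.2
    have h5 : d ^ 2 = 1 := by rw [pow_two]; exact sq_eq_one hD.1 hd
    rw [inv_mul_eq_iff_eq_mul.1 h, hbd.mul_pow, hb, one_mul, ← Nat.mod_add_div p 2, pow_add, pow_mul, h5, one_pow,
      mul_one, hp, pow_one] at ha
    exact ne_one hD.1 hd ha

/-- The image of a subgroup of odd order centralizing a member. -/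
theorem card_image_subgroup {G : Type*} [Group G] {D : Set G} (hD : Cfsg.IsThreeTranspositionGroup D) {p : ℕ}
    (hp : p % 2 = 1) {X : Subgroup G} (hX : Nat.card X = p) {d : G} (hd : d ∈ D)
    (hdX : d ∈ Subgroup.centralizer (X : Set G)) {Q : Type*} [Group Q]
    (π : Subgroup.centralizer ({d} : Set G) →* Q) (hker : ∀ z, π z = 1 ↔ (z : G) = 1 ∨ (z : G) = d) :
    Nat.card ((X.subgroupOf (Subgroup.centralizer ({d} : Set G))).map π) = p := by
  have hXd : X ≤ Subgroup.centralizer ({d} : Set G) := fun y hy =>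
    Subgroup.mem_centralizer_singleton_iff.2 (hdX y hy)
  have hXp : ∀ y ∈ X, y ^ p = 1 := fun y hy => by
    have h1 : (⟨y, hy⟩ : X) ^ p = 1 := by rw [← hX]; exact pow_card_eq_one'
    simpa using congrArg Subtype.val h1
  let g : X.subgroupOf (Subgroup.centralizer ({d} : Set G)) →* Q := π.comp (Subgroup.subtype _)
  have hg : Function.Injective g := fun a b e =>
    Subtype.ext (Subtype.ext (eq_of_image hD hd π hker hp e (hXp _ a.2) (hXp _ b.2)))
  have hr : g.range = (X.subgroupOf (Subgroup.centralizer ({d} : Set G))).map π := by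
    rw [MonoidHom.range_comp, Subgroup.range_subtype]
  rw [← hr, ← Nat.card_congr (MonoidHom.ofInjective hg).toEquiv,
    Nat.card_congr (Subgroup.subgroupOfEquivOfLe hXd).toEquiv, hX]

/-- A group of order twenty acting faithfully on its subgroup of order five squares a generator. -/
theorem exists_conj_pow {G : Type*} [Group G] [Finite G] {X F : Subgroup G} (hX : Nat.card X = 5)
    (hF : Nat.card F = 20) (hXF : X ≤ F) (hFC : F ⊓ Subgroup.centralizer (X : Set G) = X)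
    (hFN : F ≤ Subgroup.normalizer (X : Set G)) {x : G} (hx : x ∈ X) (hx1 : x ≠ 1) :
    ∃ n ∈ F, n * x * n⁻¹ = x ^ 2 := by
  haveI : Fact (Nat.Prime 5) := ⟨by norm_num⟩
  have hx5 : x ^ 5 = 1 := by
    have h1 : (⟨x, hx⟩ : X) ^ 5 = 1 := by rw [← hX]; exact pow_card_eq_one'
    simpa using congrArg Subtype.val h1
  have hXx : X = Subgroup.zpowers x := (Subgroup.eq_of_le_of_card_ge (Subgroup.zpowers_le.2 hx)
    (by rw [hX, Nat.card_zpowers, orderOf_eq_prime hx5 hx1])).symm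
  let S : Set G := (X : Set G) \ {1}
  have hS : Nat.card S = 4 := by
    rw [Nat.card_coe_set_eq, Set.ncard_sdiff (Set.singleton_subset_iff.2 (one_mem X)), Set.ncard_singleton,
      ← Nat.card_coe_set_eq, show Nat.card ((X : Set G)) = 5 from hX]
  have hmem : ∀ u ∈ F, u * x * u⁻¹ ∈ S := fun u hu =>
    ⟨(Subgroup.mem_normalizer_iff.1 (hFN hu) x).1 hx, fun e => hx1 (conj_eq_one_iff.1 e)⟩
  let f : F ⧸ X.subgroupOf F → S := fun q => ⟨_, hmem _ q.out.2⟩
  have hq : Nat.card (F ⧸ X.subgroupOf F) = 4 := by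
    have h := Subgroup.card_eq_card_quotient_mul_card_subgroup (X.subgroupOf F)
    rw [hF, Nat.card_congr (Subgroup.subgroupOfEquivOfLe hXF).toEquiv, hX] at h
    omega
  have hf : Function.Injective f := by
    intro u v e
    have e' : (u.out : G) * x * (u.out : G)⁻¹ = (v.out : G) * x * (v.out : G)⁻¹ := congrArg Subtype.val e
    have hc : Commute ((v.out : G)⁻¹ * u.out) x := by
      show (v.out : G)⁻¹ * u.out * x = x * ((v.out : G)⁻¹ * u.out)
      calc (v.out : G)⁻¹ * u.out * x = (v.out : G)⁻¹ * ((u.out : G) * x * (u.out : G)⁻¹) * u.out := by group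
        _ = (v.out : G)⁻¹ * ((v.out : G) * x * (v.out : G)⁻¹) * u.out := by rw [e']
        _ = x * ((v.out : G)⁻¹ * u.out) := by group
    have hm : (v.out : G)⁻¹ * u.out ∈ X := hFC.le (Subgroup.mem_inf.2 ⟨mul_mem (inv_mem v.out.2) u.out.2,
      fun y hy => by
        obtain ⟨i, rfl⟩ := Subgroup.mem_zpowers_iff.1 (hXx.le hy)
        exact (hc.symm.zpow_left i).eq⟩)
    rw [← QuotientGroup.out_eq' u, ← QuotientGroup.out_eq' v]
    exact (QuotientGroup.eq.2 (Subgroup.mem_subgroupOf.2 hm)).symm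
  have hx2 : x ^ 2 ∈ S := by
    refine ⟨pow_mem hx 2, fun e => hx1 ?_⟩
    have := pow_gcd_eq_one.2 ⟨(e : x ^ 2 = 1), hx5⟩
    simpa using this
  obtain ⟨q, hq'⟩ := (hf.bijective_of_nat_card_le (by rw [hq, hS])).2 ⟨_, hx2⟩
  exact ⟨_, q.out.2, congrArg Subtype.val hq'⟩

section LocalTwentyThree

variable {G : Type*} [Group G] [Finite G] {D : Set G}
variable (hD : Cfsg.IsThreeTranspositionGroup D) (hprim : Cfsg.IsPrimitiveUnderConj D)
  (ht : Cfsg.IsOfTypeM23 G D)

include hD hprim ht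

/-- In type M(23): centralizing the subgroup and its members means lying in it. -/
theorem five_fix23 {X : Subgroup G} (hX : Nat.card X = 5) {z : G} (hzX : z ∈ Subgroup.centralizer (X : Set G))
    (hzT : ∀ t ∈ D ∩ (Subgroup.centralizer (X : Set G) : Set G), Commute z t) : z ∈ X := by
  have hsev := five_seven21 hD hprim ht hX
  obtain ⟨d, hd⟩ := hsev.ne
  rcases (five_local23 hD hprim ht hX hd.1 hd.2).2 z hzX (hzT d hd) (fun u hu => hzT u hu.1) with h | h
  · exact h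
  · exfalso
    obtain ⟨a, ha, had⟩ := hsev.exists_noncommuting hd
    refine had ?_
    have hzda : Commute (z * d) a := ha.2 _ h
    rw [show d = z⁻¹ * (z * d) by group]
    exact (hzT a ha).inv_left.mul_left hzda

end LocalTwentyThree

variable {G : Type*} [Group G] [Finite G] {D : Set G}
variable (hD : Cfsg.IsThreeTranspositionGroup D) (hprim : Cfsg.IsPrimitiveUnderConj D)
  (ht : Cfsg.IsOfTypeM24 G D)

include hD hprim ht

theorem mu_eq24 {a b : G} (ha : a ∈ D) (hb : b ∈ D) (hab : ¬ Commute a b) : (common D a b).ncard = 3240 := by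
  classical
  let _ : Fintype G := Fintype.ofFinite G
  let α := {x : G // x ∈ D}
  let R : α → α → Prop := fun x y => (x : G) ≠ y ∧ Commute (x : G) y
  haveI : Nonempty α := ⟨⟨a, ha⟩⟩
  have hcard : ∀ (p : α → Prop) [DecidablePred p] (S : Set G), (∀ y ∈ S, y ∈ D) →
      (∀ z : α, p z ↔ (z : G) ∈ S) → (Finset.univ.filter p).card = S.ncard := by
    intro p _ S hS hp
    rw [← Set.ncard_coe_finset, ← Set.ncard_image_of_injective _ Subtype.val_injective]
    congr 1
    ext y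
    constructor
    · rintro ⟨z, hz, rfl⟩
      exact (hp z).1 (Finset.mem_filter.1 hz).2
    · intro hy
      exact ⟨⟨y, hS y hy⟩, Finset.mem_filter.2 ⟨Finset.mem_univ _, (hp _).2 hy⟩, rfl⟩
  obtain ⟨μ, hμdef⟩ : ∃ μ, μ = (common D a b).ncard := ⟨_, rfl⟩
  have hsrg : SRGTrace.IsSRG R 31671 3510 μ := by
    refine ⟨fun x y k => ⟨Ne.symm k.1, k.2.symm⟩, fun x k => k.1 rfl, fun x => ?_, fun x y k => ?_,
      fun x y hne k => ?_⟩
    · rw [← TypeTwentyFour.ncard_perp hD hprim ht x.2]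
      exact hcard _ _ (fun y hy => hy.1) fun z =>
        ⟨fun k => ⟨z.2, Ne.symm k.1, k.2⟩, fun k => ⟨Ne.symm k.2.1, k.2.2⟩⟩
    · rw [← TypeTwentyFour.ncard_common_commute hD hprim ht x.2 (w := (y : G)) ⟨y.2, Ne.symm k.1, k.2⟩]
      exact hcard _ _ (fun y hy => hy.1.1) fun z =>
        ⟨fun q => ⟨⟨z.2, Ne.symm q.1.1, q.1.2⟩, z.2, Ne.symm q.2.1, q.2.2⟩,
          fun q => ⟨⟨Ne.symm q.1.2.1, q.1.2.2⟩, Ne.symm q.2.2.1, q.2.2.2⟩⟩
    · have hnc : ¬ Commute (x : G) y := fun c => k ⟨fun q => hne (Subtype.ext q), c⟩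
      rw [hμdef, TypeTwentyFour.ncard_common_const hD hprim ht ha hb hab x.2 y.2 hnc]
      exact hcard _ _ (fun y hy => hy.1) fun z => ⟨fun q => ⟨z.2, Ne.symm q.1.1, q.1.2, q.2.2⟩,
        fun q => ⟨⟨Ne.symm q.2.1, q.2.2.1⟩, fun c => hnc (c ▸ q.2.2.1), q.2.2.2⟩⟩
  have hcount := SRGTrace.count_eq hsrg
  have hv : Fintype.card α = 306936 := by
    rw [← TypeTwentyFour.ncard_eq hD hprim ht, ← Nat.card_coe_set_eq, Nat.card_eq_fintype_card]
  rw [hv] at hcount
  push_cast at hcount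
  have : ((μ : ℕ) : ℚ) = 3240 := by linarith
  rw [← hμdef]
  exact_mod_cast this

theorem proj24_surjective {d : G} (hd : d ∈ D)
    (π : Subgroup.centralizer ({d} : Set G) →*
      Subgroup.closure (perp D d) ⧸ Subgroup.center (Subgroup.closure (perp D d)))
    (hsurj : ∀ q ∈ imageSet D d (Subgroup.closure (perp D d)),
      ∃ z : Subgroup.centralizer ({d} : Set G), (z : G) ∈ perp D d ∧ π z = q) : Function.Surjective π := by
  rw [← MonoidHom.range_eq_top, eq_top_iff, ← (TypeTwentyFour.good_at hD hprim ht hd).tt.2.2, Subgroup.closure_le]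
  intro q hq
  obtain ⟨z, -, e⟩ := hsurj q hq
  exact ⟨z, e⟩

theorem five_local24 {X : Subgroup G} (hX : Nat.card X = 5) {d : G} (hd : d ∈ D)
    (hdX : d ∈ Subgroup.centralizer (X : Set G)) :
    Seven21 D (perp (D ∩ (Subgroup.centralizer (X : Set G) : Set G)) d) ∧
      ∀ z ∈ Subgroup.centralizer (X : Set G), Commute z d →
        (∀ u ∈ perp (D ∩ (Subgroup.centralizer (X : Set G) : Set G)) d, Commute z u) → z ∈ X ∨ z * d ∈ X := by
  classical
  haveI : Fact (Nat.Prime 5) := ⟨by norm_num⟩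
  obtain ⟨T, hT⟩ : ∃ T, T = D ∩ (Subgroup.centralizer (X : Set G) : Set G) := ⟨_, rfl⟩
  rw [← hT]
  have hX5 : ∀ y ∈ X, y ^ 5 = 1 := fun y hy => by
    have h1 : (⟨y, hy⟩ : X) ^ 5 = 1 := by rw [← hX]; exact pow_card_eq_one'
    simpa using congrArg Subtype.val h1
  obtain ⟨π, hker, hmem, hsurj⟩ := exists_proj24 hD hprim ht hd
  obtain ⟨Xb, hXb⟩ : ∃ Xb, Xb = (X.subgroupOf (Subgroup.centralizer ({d} : Set G))).map π := ⟨_, rfl⟩
  have hXbcard : Nat.card Xb = 5 := hXb ▸ card_image_subgroup hD rfl hX hd hdX π hker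
  have hdd : d * d = 1 := sq_eq_one hD.1 hd
  have hEg := TypeTwentyFour.good_at hD hprim ht hd
  have hEp := TypeTwentyFour.primitive_at hD hprim ht hd
  have hEt := TypeTwentyFour.type23_at hD hprim ht hd
  have hsev := five_seven21 hEg.tt hEp hEt hXbcard
  have hpT : ∀ u, u ∈ perp T d ↔ u ∈ perp D d ∧ u ∈ Subgroup.centralizer (X : Set G) := fun u => by
    rw [hT]
    exact ⟨fun h => ⟨⟨h.1.1, h.2⟩, h.1.2⟩, fun h => ⟨⟨h.1.1, h.2⟩, h.1.2⟩⟩
  have hcU : ∀ u ∈ perp T d, u ∈ Subgroup.centralizer ({d} : Set G) := fun u hu =>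
    Subgroup.mem_centralizer_singleton_iff.2 hu.2.2.symm.eq
  have himg : ∀ z : Subgroup.centralizer ({d} : Set G), (z : G) ∈ Subgroup.centralizer (X : Set G) →
      π z ∈ Subgroup.centralizer (SetLike.coe Xb) := by
    intro z hz
    rw [hXb]
    rintro w ⟨w', hw', rfl⟩
    rw [← map_mul, ← map_mul]
    congr 1
    exact Subtype.ext (hz _ (Subgroup.mem_subgroupOf.1 hw'))
  have hinj : ∀ u (hu : u ∈ perp T d) v (hv : v ∈ perp T d), π ⟨u, hcU u hu⟩ = π ⟨v, hcU v hv⟩ → u = v := by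
    intro u hu v hv e
    have h2 : π (⟨u, hcU u hu⟩ * ⟨v, hcU v hv⟩⁻¹) = 1 := by rw [map_mul, map_inv, e, mul_inv_cancel]
    have huD := ((hpT u).1 hu).1.1
    have hvD := ((hpT v).1 hv).1.1
    rcases (hker _).1 h2 with h | h <;> simp only [Subgroup.coe_mul, InvMemClass.coe_inv] at h
    · exact mul_inv_eq_one.1 h
    · exfalso
      rw [inv_eq hD.1 hvD] at h
      have h4 : (u * v) ^ 2 = 1 := by rw [h, pow_two, hdd]
      refine mul_notMem_class hD ht.1 huD hvD ?_ ((sq_mul_iff hD.1 huD hvD).1 h4) (h ▸ hd)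
      intro e'
      rw [e', sq_eq_one hD.1 hvD] at h
      exact ne_one hD.1 hd h.symm
  have hclP : ∀ u ∈ perp T d, ∀ v ∈ perp T d, u * v * u ∈ perp T d := by
    intro u hu v hv
    have hu' := (hpT u).1 hu
    have hv' := (hpT v).1 hv
    refine (hpT _).2 ⟨?_, mul_mem (mul_mem hu'.2 hv'.2) hu'.2⟩
    rw [← conj_eq hD.1 hu'.1.1]
    exact (conj_mem_perp_iff hD hu'.1.2.2.symm).2 hv'.1
  obtain ⟨f, hf⟩ : ∃ f : G → _, ∀ u (hu : u ∈ perp T d), f u = π ⟨u, hcU u hu⟩ :=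
    ⟨fun u => if hu : u ∈ perp T d then π ⟨u, hcU u hu⟩ else 1, fun u hu => dif_pos hu⟩
  have hc : ∀ u ∈ perp T d, ∀ v ∈ perp T d, (Commute (f u) (f v) ↔ Commute u v) := by
    intro u hu v hv
    rw [hf u hu, hf v hv]
    refine ⟨fun k => ?_, fun k => ?_⟩
    · have huD := ((hpT u).1 hu).1.1
      have huu : π ⟨u, hcU u hu⟩ * π ⟨u, hcU u hu⟩ = 1 := by
        rw [← map_mul, show (⟨u, hcU u hu⟩ * ⟨u, hcU u hu⟩ : Subgroup.centralizer ({d} : Set G)) = 1 from
          Subtype.ext (sq_eq_one hD.1 huD), map_one]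
      have he := hinj _ (hclP u hu v hv) v hv (by
        rw [show (⟨u * v * u, hcU _ (hclP u hu v hv)⟩ : Subgroup.centralizer ({d} : Set G)) =
          ⟨u, hcU u hu⟩ * ⟨v, hcU v hv⟩ * ⟨u, hcU u hu⟩ from rfl, map_mul, map_mul, k.eq, mul_assoc, huu, mul_one])
      show u * v = v * u
      calc u * v = u * v * (u * u) := by rw [sq_eq_one hD.1 huD, mul_one]
        _ = u * v * u * u := by group
        _ = v * u := by rw [he]
    · exact (show Commute (⟨u, hcU u hu⟩ : Subgroup.centralizer ({d} : Set G)) ⟨v, hcU v hv⟩ from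
        Subtype.ext k.eq).map π
  have hsurjT : ∀ q ∈ imageSet D d (Subgroup.closure (perp D d)), q ∈ Subgroup.centralizer (SetLike.coe Xb) →
      ∃ u, ∃ hu : u ∈ perp T d, π ⟨u, hcU u hu⟩ = q := by
    intro q hq hqX
    obtain ⟨z, hz, hzq⟩ := hsurj q hq
    have hzX := centralizes_image hD (p := 5) rfl hX5 hd hdX π hker z (hXb ▸ hzq.symm ▸ hqX)
    exact ⟨z, (hpT _).2 ⟨hz, hzX⟩, hzq⟩
  have himgT : f '' perp T d =
      imageSet D d (Subgroup.closure (perp D d)) ∩ (Subgroup.centralizer (SetLike.coe Xb) : Set _) := by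
    ext q
    constructor
    · rintro ⟨u, hu, rfl⟩
      rw [hf u hu]
      exact ⟨hmem _ ((hpT u).1 hu).1, himg _ ((hpT u).1 hu).2⟩
    · rintro ⟨hq, hqX⟩
      obtain ⟨u, hu, e⟩ := hsurjT q hq hqX
      exact ⟨u, hu, (hf u hu).trans e⟩
  have hpcl : ∀ u ∈ perp T d, ∀ a ∈ perp (perp T d) u, ∀ b ∈ perp (perp T d) u, a * b * a ∈ perp (perp T d) u := by
    intro u _ a ha b hb
    refine ⟨hclP a ha.1 b hb.1, fun e => hb.2.1 ?_, (ha.2.2.mul_right hb.2.2).mul_right ha.2.2⟩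
    have ha2 : a * a = 1 := sq_eq_one hD.1 ((hpT a).1 ha.1).1.1
    calc b = (a * a) * b * (a * a) := by rw [ha2, one_mul, mul_one]
      _ = a * (a * b * a) * a := by group
      _ = a * u * a := by rw [e]
      _ = u * (a * a) := by rw [← ha.2.2.eq, mul_assoc]
      _ = u := by rw [ha2, mul_one]
  refine ⟨Seven21.of_image f hsev (fun u hu => ((hpT u).1 hu).1.1) hclP himgT
    (fun u hu v hv e => hinj u hu v hv (by rwa [← hf u hu, ← hf v hv])) hc
    (fun hU => Cubic.of_image f hU) hpcl, fun z hzX hzd hzT => ?_⟩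
  obtain ⟨zz, hzz⟩ : ∃ zz : Subgroup.centralizer ({d} : Set G),
      zz = ⟨z, Subgroup.mem_centralizer_singleton_iff.2 hzd.eq⟩ := ⟨_, rfl⟩
  have hzb : π zz ∈ Xb := by
    refine five_fix23 hEg.tt hEp hEt hXbcard (himg zz (by rw [hzz]; exact hzX)) ?_
    rintro q ⟨hq, hqX⟩
    obtain ⟨u, hu, rfl⟩ := hsurjT q hq hqX
    exact (show Commute zz ⟨u, hcU u hu⟩ from Subtype.ext (by rw [hzz]; exact (hzT u hu).eq)).map π
  rw [hXb] at hzb
  obtain ⟨w, hw, hwz⟩ := hzb
  have hwX : (w : G) ∈ X := Subgroup.mem_subgroupOf.1 hw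
  have h2 : π (w⁻¹ * zz) = 1 := by rw [map_mul, map_inv, hwz, inv_mul_cancel]
  rcases (hker _).1 h2 with h | h <;> simp only [hzz, Subgroup.coe_mul, InvMemClass.coe_inv] at h
  · exact Or.inl (inv_mul_eq_one.1 h ▸ hwX)
  · refine Or.inr ?_
    rw [inv_mul_eq_iff_eq_mul.1 h, mul_assoc, hdd, mul_one]
    exact hwX

theorem five_nonempty24 {X : Subgroup G} (hX : Nat.card X = 5) :
    (D ∩ (Subgroup.centralizer (X : Set G) : Set G)).Nonempty := by
  haveI : Fact (Nat.Prime 5) := ⟨by norm_num⟩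
  by_contra hc
  rw [Set.not_nonempty_iff_eq_empty] at hc
  have h := ncard_members_modEq hD (p := 5) hX
  rw [hc, Set.ncard_empty, TypeTwentyFour.ncard_eq hD hprim ht] at h
  exact absurd h (by decide)

theorem five_nine36 {X : Subgroup G} (hX : Nat.card X = 5) :
    Nine36 D (D ∩ (Subgroup.centralizer (X : Set G) : Set G)) := by
  haveI : Fact (Nat.Prime 5) := ⟨by norm_num⟩
  refine ⟨Set.inter_subset_left, five_nonempty24 hD hprim ht hX, ?_,
    fun a ha => (five_local24 hD hprim ht hX ha.1 ha.2).1, fun a ha b hb hab => ?_⟩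
  · rintro a ⟨ha, haX⟩ b ⟨hb, hbX⟩
    exact ⟨by rw [← conj_eq hD.1 ha]; exact hD.2.1 a b hb, mul_mem (mul_mem haX hbX) haX⟩
  · have hinv : ∀ x ∈ X, ∀ y ∈ common D a b, x * y * x⁻¹ ∈ common D a b := by
      rintro x hx y ⟨hy, hne, h1, h2⟩
      have hxa : x * a * x⁻¹ = a := mul_inv_eq_iff_eq_mul.2 (ha.2 x hx)
      have hxb : x * b * x⁻¹ = b := mul_inv_eq_iff_eq_mul.2 (hb.2 x hx)
      refine ⟨hD.2.1 x y hy, fun k => hne (mul_left_cancel (mul_right_cancel (k.trans hxa.symm))), ?_, ?_⟩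
      · rw [← hxa]; exact (conj_commute_iff x _ _).2 h1
      · rw [← hxb]; exact (conj_commute_iff x _ _).2 h2
    have hmod := ncard_fixed_modEq (p := 5) hX hinv
    rw [mu_eq24 hD hprim ht ha.1 hb.1 hab] at hmod
    obtain ⟨T, hT⟩ : ∃ T, T = D ∩ (Subgroup.centralizer (X : Set G) : Set G) := ⟨_, rfl⟩
    rw [← hT] at ha hb ⊢
    have heq : common D a b ∩ (Subgroup.centralizer (X : Set G) : Set G) = perp T a ∩ perp T b := by
      rw [hT]
      ext y
      constructor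
      · rintro ⟨⟨hy, hne, h1, h2⟩, hyX⟩
        exact ⟨⟨⟨hy, hyX⟩, hne, h1⟩, ⟨hy, hyX⟩, fun e => hab (e ▸ h1), h2⟩
      · rintro ⟨⟨⟨hy, hyX⟩, hne, h1⟩, -, -, h2⟩
        exact ⟨⟨hy, hne, h1, h2⟩, hyX⟩
    rw [heq, Nat.ModEq] at hmod
    omega

theorem five_conj24 {X Z : Subgroup G} (hX : Nat.card X = 5) (hZ : Nat.card Z = 5) :
    ∃ g : G, X.map (MulAut.conj g).toMonoidHom = Z := by
  haveI : Fact (Nat.Prime 5) := ⟨by norm_num⟩
  obtain ⟨d₁, hd₁, hd₁X⟩ := five_nonempty24 hD hprim ht hX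
  obtain ⟨d, hd, hdZ⟩ := five_nonempty24 hD hprim ht hZ
  obtain ⟨g, hg⟩ := hprim.1 d₁ hd₁ d hd
  obtain ⟨Y, hY⟩ : ∃ Y, Y = X.map (MulAut.conj g).toMonoidHom := ⟨_, rfl⟩
  have hdY : d ∈ Subgroup.centralizer (Y : Set G) := by
    rw [hY]
    rintro _ ⟨x, hx, rfl⟩
    show g * x * g⁻¹ * d = d * (g * x * g⁻¹)
    rw [← hg]
    calc g * x * g⁻¹ * (g * d₁ * g⁻¹) = g * (x * d₁) * g⁻¹ := by group
      _ = g * (d₁ * x) * g⁻¹ := by rw [hd₁X x hx]
      _ = g * d₁ * g⁻¹ * (g * x * g⁻¹) := by group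
  have hYcard : Nat.card Y = 5 := by
    rw [hY, Nat.card_congr (Subgroup.equivMapOfInjective X _ (MulAut.conj g).injective).symm.toEquiv, hX]
  obtain ⟨π, hker, -, hsurj⟩ := exists_proj24 hD hprim ht hd
  obtain ⟨cb, hcb⟩ := five_conj23 (TypeTwentyFour.good_at hD hprim ht hd).tt (TypeTwentyFour.primitive_at hD hprim ht hd)
    (TypeTwentyFour.type23_at hD hprim ht hd) (card_image_subgroup hD rfl hYcard hd hdY π hker)
    (card_image_subgroup hD rfl hZ hd hdZ π hker)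
  obtain ⟨c, rfl⟩ := proj24_surjective hD hprim ht hd π hsurj cb
  have hpow : ∀ {W : Subgroup G}, Nat.card W = 5 → ∀ y ∈ W, y ^ 5 = 1 := fun {W} hW y hy => by
    have h1 : (⟨y, hy⟩ : W) ^ 5 = 1 := by rw [← hW]; exact pow_card_eq_one'
    simpa using congrArg Subtype.val h1
  refine ⟨(c : G) * g, Subgroup.eq_of_le_of_card_ge ?_ (by
    rw [hZ, Nat.card_congr (Subgroup.equivMapOfInjective X _ (MulAut.conj _).injective).symm.toEquiv, hX])⟩
  rintro _ ⟨x, hx, rfl⟩
  have hyY : g * x * g⁻¹ ∈ Y := hY ▸ ⟨x, hx, rfl⟩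
  obtain ⟨y, hydef⟩ : ∃ y : Subgroup.centralizer ({d} : Set G),
      y = ⟨g * x * g⁻¹, Subgroup.mem_centralizer_singleton_iff.2 (hdY _ hyY)⟩ := ⟨_, rfl⟩
  obtain ⟨z, hz, hzy⟩ := hcb.le ⟨π y, ⟨y, Subgroup.mem_subgroupOf.2 (hydef ▸ hyY), rfl⟩, rfl⟩
  have hzZ : (z : G) ∈ Z := Subgroup.mem_subgroupOf.1 hz
  have e : ((c * y * c⁻¹ : Subgroup.centralizer ({d} : Set G)) : G) = z := eq_of_image hD hd π hker
    (p := 5) rfl (by rw [map_mul, map_mul, map_inv]; exact hzy.symm) (by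
      simp only [Subgroup.coe_mul, InvMemClass.coe_inv, conj_pow, hydef, hpow hYcard _ hyY, mul_one, mul_inv_cancel])
    (hpow hZ _ hzZ)
  show (c : G) * g * x * ((c : G) * g)⁻¹ ∈ Z
  rw [show (c : G) * g * x * ((c : G) * g)⁻¹ = (c : G) * (g * x * g⁻¹) * (c : G)⁻¹ by group]
  rw [hydef] at e
  simp only [Subgroup.coe_mul, InvMemClass.coe_inv] at e
  rw [e]
  exact hzZ

theorem five_normalizer24 {X : Subgroup G} (hX : Nat.card X = 5) :
    ∃ F : Subgroup G, Nat.card F = 20 ∧ X ≤ F ∧ F ⊓ Subgroup.centralizer (X : Set G) = X ∧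
      F ⊓ Subgroup.closure (D ∩ (Subgroup.centralizer (X : Set G) : Set G)) = ⊥ ∧
      (∀ x ∈ F, ∀ y ∈ Subgroup.closure (D ∩ (Subgroup.centralizer (X : Set G) : Set G)), x * y = y * x) ∧
      F ⊔ Subgroup.closure (D ∩ (Subgroup.centralizer (X : Set G) : Set G)) = Subgroup.normalizer (X : Set G) ∧
      Nonempty (Subgroup.closure (D ∩ (Subgroup.centralizer (X : Set G) : Set G)) ≃* Equiv.Perm (Fin 9)) := by
  haveI : Fact (Nat.Prime 5) := ⟨by norm_num⟩
  have hnin := five_nine36 hD hprim ht hX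
  obtain ⟨T, hT⟩ : ∃ T, T = D ∩ (Subgroup.centralizer (X : Set G) : Set G) := ⟨_, rfl⟩
  rw [← hT] at hnin ⊢
  obtain ⟨N, hN⟩ : ∃ N, N = Subgroup.normalizer (X : Set G) := ⟨_, rfl⟩
  rw [← hN]
  have hCN : Subgroup.centralizer (X : Set G) ≤ N := hN ▸ Subgroup.centralizer_le_normalizer (X : Set G)
  have hTC : Subgroup.closure T ≤ Subgroup.centralizer (X : Set G) := by
    rw [hT, Subgroup.closure_le]; exact Set.inter_subset_right
  have hNT : ∀ n ∈ N, ∀ y ∈ T, n * y * n⁻¹ ∈ T := by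
    intro n hn y hy
    rw [hT] at hy ⊢
    refine ⟨hD.2.1 n y hy.1, fun w hw => ?_⟩
    rw [hN] at hn
    have hw' : n⁻¹ * w * n ∈ X := by simpa using (Subgroup.mem_normalizer_iff.1 (inv_mem hn) w).1 hw
    calc w * (n * y * n⁻¹) = n * ((n⁻¹ * w * n) * y) * n⁻¹ := by group
      _ = n * (y * (n⁻¹ * w * n)) * n⁻¹ := by rw [hy.2 _ hw']
      _ = n * y * n⁻¹ * w := by group
  obtain ⟨hFY, hcomm, hsup⟩ := hnin.split hD (hTC.trans hCN) hNT
  obtain ⟨e9⟩ := hnin.iso hD
  obtain ⟨F, hF⟩ : ∃ F, F = N ⊓ Subgroup.centralizer T := ⟨_, rfl⟩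
  rw [← hF] at hFY hcomm hsup
  have hXC := le_centralizer_self hX
  have hXF : X ≤ F := by
    rw [hF, hT]
    exact le_inf (hXC.trans hCN) fun y hy t ht' => (ht'.2 y hy).symm
  obtain ⟨d, hd⟩ := hnin.ne
  have hd' := hT ▸ hd
  have hFC : F ⊓ Subgroup.centralizer (X : Set G) = X := by
    refine le_antisymm (fun z hz => ?_) (le_inf hXF hXC)
    obtain ⟨hz1, hzX⟩ := Subgroup.mem_inf.1 hz
    rw [hF] at hz1
    have hzT : ∀ u ∈ T, Commute z u := fun u hu => ((Subgroup.mem_inf.1 hz1).2 u hu).symm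
    rcases (five_local24 hD hprim ht hX hd'.1 hd'.2).2 z hzX (hzT d hd)
      (fun u hu => hzT u (hT.symm ▸ hu.1)) with h | h
    · exact h
    · exfalso
      obtain ⟨a, ha, had⟩ := hnin.exists_noncommuting hD hd
      refine had ?_
      have ha' := hT ▸ ha
      have hzda : Commute (z * d) a := ha'.2 _ h
      rw [show d = z⁻¹ * (z * d) by group]
      exact (hzT a ha).inv_left.mul_left hzda
  -- an element inducing an automorphism of order four
  obtain ⟨π, hker, -, hsurj⟩ := exists_proj24 hD hprim ht hd'.1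
  have hEg := TypeTwentyFour.good_at hD hprim ht hd'.1
  have hEp := TypeTwentyFour.primitive_at hD hprim ht hd'.1
  have hEt := TypeTwentyFour.type23_at hD hprim ht hd'.1
  obtain ⟨Xb, hXb⟩ : ∃ Xb, Xb = (X.subgroupOf (Subgroup.centralizer ({d} : Set G))).map π := ⟨_, rfl⟩
  have hXbcard : Nat.card Xb = 5 := hXb ▸ card_image_subgroup hD rfl hX hd'.1 hd'.2 π hker
  obtain ⟨Fb, hFb, hXFb, hFbC, -, -, hFbN, -⟩ := five_normalizer23 hEg.tt hEp hEt hXbcard
  obtain ⟨w, hwX, hw5, hw1, -⟩ := exists_generator hXbcard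
  obtain ⟨y, -, hyw⟩ := exists_conj_pow hXbcard hFb hXFb hFbC (le_sup_left.trans hFbN.le) hwX hw1
  rw [hXb] at hwX
  obtain ⟨x, hxX, hxw⟩ := hwX
  obtain ⟨n, hn⟩ := proj24_surjective hD hprim ht hd'.1 π hsurj y
  have hxX' : (x : G) ∈ X := Subgroup.mem_subgroupOf.1 hxX
  have hx5 : (x : G) ^ 5 = 1 := by
    have h1 : (⟨(x : G), hxX'⟩ : X) ^ 5 = 1 := by rw [← hX]; exact pow_card_eq_one'
    simpa using congrArg Subtype.val h1
  have hx1 : (x : G) ≠ 1 := fun k => by
    rw [show x = 1 from Subtype.ext k, map_one] at hxw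
    exact hw1 hxw.symm
  have hnx : (n : G) * x * (n : G)⁻¹ = (x : G) ^ 2 := by
    refine eq_of_image hD hd'.1 π hker (p := 5) rfl (a := n * x * n⁻¹) (b := x ^ 2) ?_ ?_ ?_
    · rw [map_mul, map_mul, map_inv, map_pow, hn, hxw]
      exact hyw
    · simp only [Subgroup.coe_mul, InvMemClass.coe_inv, conj_pow, hx5, mul_one, mul_inv_cancel]
    · rw [SubgroupClass.coe_pow, ← pow_mul, mul_comm, pow_mul, hx5, one_pow]
  obtain ⟨n', hn'⟩ : ∃ n' : G, n' = n := ⟨_, rfl⟩
  obtain ⟨x', hx'⟩ : ∃ x' : G, x' = x := ⟨_, rfl⟩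
  rw [← hn', ← hx'] at hnx
  rw [← hx'] at hxX' hx5 hx1
  have hXx : X = Subgroup.zpowers x' := (Subgroup.eq_of_le_of_card_ge (Subgroup.zpowers_le.2 hxX')
    (by rw [hX, Nat.card_zpowers, orderOf_eq_prime hx5 hx1])).symm
  have hnN : n' ∈ N := by
    rw [hN]
    have hmap : X.map (MulAut.conj n').toMonoidHom = X := by
      refine Subgroup.eq_of_le_of_card_ge ?_ (le_of_eq
        (Nat.card_congr (Subgroup.equivMapOfInjective X _ (MulAut.conj n').injective).toEquiv))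
      rw [hXx, MonoidHom.map_zpowers, Subgroup.zpowers_le]
      show n' * x' * n'⁻¹ ∈ Subgroup.zpowers x'
      rw [hnx]
      exact pow_mem (Subgroup.mem_zpowers x') 2
    refine Subgroup.mem_normalizer_iff.2 fun h => ⟨fun hh => hmap.le ⟨h, hh, rfl⟩, fun hh => ?_⟩
    obtain ⟨h', hh', e⟩ := hmap.ge hh
    rwa [show h = h' from mul_left_cancel (mul_right_cancel e.symm)]
  have hn2 : n' * n' ∉ Subgroup.centralizer (X : Set G) := by
    intro k
    have h4 : n' * n' * x' * (n' * n')⁻¹ = x' ^ 4 := by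
      rw [show n' * n' * x' * (n' * n')⁻¹ = n' * (n' * x' * n'⁻¹) * n'⁻¹ by group, hnx, ← conj_pow, hnx, ← pow_mul]
    have hc : Commute x' (n' * n') := k x' hxX'
    rw [← hc.eq, mul_inv_cancel_right] at h4
    have h3 : x' ^ 3 = 1 := by
      rw [pow_succ] at h4
      exact mul_right_cancel (h4.symm.trans (one_mul x').symm)
    have := pow_gcd_eq_one.2 ⟨h3, hx5⟩
    simp at this
    exact hx1 this
  obtain ⟨e, he, hFe⟩ := card_eq_mul_of_inf_centralizer hX (F := F) (hF ▸ inf_le_left.trans hN.le)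
  rw [hFC, hX] at hFe
  have hFcard : Nat.card F = 20 := by
    obtain ⟨u, hu, v, hv, huv⟩ : ∃ u ∈ F, ∃ v ∈ Subgroup.closure T, n' = u * v := by
      have hle : F ≤ Subgroup.normalizer (Subgroup.closure T : Set G) := fun u hu => by
        refine Subgroup.mem_normalizer_iff.2 fun v => ⟨fun hv => ?_, fun hv => ?_⟩
        · rwa [hcomm u hu v hv, mul_inv_cancel_right]
        · have h := hcomm u⁻¹ (inv_mem hu) _ hv
          rw [show u⁻¹ * (u * v * u⁻¹) = v * u⁻¹ by group] at h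
          rwa [mul_right_cancel h]
      have hz' : n' ∈ ((F ⊔ Subgroup.closure T : Subgroup G) : Set G) := hsup.ge hnN
      rw [Subgroup.coe_mul_of_left_le_normalizer_right _ _ hle] at hz'
      obtain ⟨u, hu, v, hv, huv⟩ := hz'
      exact ⟨u, hu, v, hv, huv.symm⟩
    have hu2 : u * u ∉ X := by
      intro k
      refine hn2 ?_
      rw [huv, show u * v * (u * v) = u * (v * u) * v by group, ← hcomm u hu v hv,
        show u * (u * v) * v = u * u * (v * v) by group]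
      exact mul_mem (hXC k) (hTC (mul_mem hv hv))
    have hidx : (X.subgroupOf F).index = e := by
      have h := (X.subgroupOf F).card_mul_index
      rw [Nat.card_congr (Subgroup.subgroupOfEquivOfLe hXF).toEquiv, hX, hFe] at h
      omega
    have he4 : e = 4 := by
      have hle := Nat.le_of_dvd (by norm_num) he
      interval_cases e
      · simp at he
      · exfalso
        rw [Subgroup.index_eq_one, Subgroup.subgroupOf_eq_top] at hidx
        exact hu2 (hidx (mul_mem hu hu))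
      · exact absurd (Subgroup.mem_subgroupOf.1 (Subgroup.mul_self_mem_of_index_two hidx ⟨u, hu⟩)) hu2
      · norm_num at he
      · rfl
    rw [hFe, he4]
  exact ⟨F, hFcard, hXF, hFC, hFY, hcomm, hsup, ⟨e9⟩⟩

end CfsgLib.Fischer.MTwentyFourSylow
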